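import Mathlib
import Cfsg.Agent.Lib.Push.QdF
import Cfsg.Prelude.Def_TwoFusion

/-!
The pushing-up configuration with abelian `O_p(P)` splits as `Qd(q) × E`.
-/

set_option autoImplicit false

namespace CfsgLib.Push

open Subgroup Matrix MatrixGroups Cfsg CfsgLib.SL2 CfsgLib.LAE CfsgLib.PLocal
open scoped commutatorElement

variable {G : Type*} [Group G]

/-- Gaschütz's theorem in ambient form. -/
theorem exists_compl_in [Finite G] {p : ℕ} [Fact p.Prime] {S P Q C : Subgroup G}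
    (hS : IsSylowIn p S P) (hQ : IsPGroup p Q) (hc : Q ≤ centralizer (Q : Set G))
    (hn : P ≤ normalizer (Q : Set G)) (h1 : C ⊓ Q = ⊥) (h2 : Q ⊔ C = S) :
    ∃ L ≤ P, L ⊓ Q = ⊥ ∧ L ⊔ Q = P := by
  have hQP : Q ≤ P := (le_sup_left.trans h2.le).trans hS.le
  have hCP : C ≤ P := (le_sup_right.trans h2.le).trans hS.le
  haveI := normal_subgroupOf_of_le hn
  haveI : IsMulCommutative (Q.subgroupOf P) :=
    ⟨⟨fun a b => Subtype.ext (Subtype.ext (hc b.2 a.1.1 a.2))⟩⟩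
  obtain ⟨k, hk⟩ := ((isPGroup_subgroupOf_iff hQP).2 hQ).exists_card_eq
  obtain ⟨L, hL⟩ := CfsgLib.Coprime.gaschutz_exists (K := Q.subgroupOf P) (U := S.subgroupOf P)
    (A := C.subgroupOf P) (hk ▸ hS.coprime_relIndex.symm.pow_left k)
    (by rw [subgroupOf, subgroupOf, ← comap_inf, h1]; exact bot_subgroupOf P) (by rw [← subgroupOf_sup hQP hCP, h2])
  refine ⟨L.map P.subtype, map_subtype_le L, ?_, ?_⟩
  · rw [← map_subgroupOf_eq_of_le hQP, ← Subgroup.map_inf _ _ _ P.subtype_injective, inf_comm,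
      hL.disjoint.eq_bot, Subgroup.map_bot]
  · rw [← map_subgroupOf_eq_of_le hQP, ← Subgroup.map_sup, sup_comm, hL.sup_eq_top, map_top_subtype]

theorem Case1.exists_qd [Finite G] {p : ℕ} [Fact p.Prime] (hp : p ≠ 2) {S P M A : Subgroup G}
    (hc : Case1 p S P A) (h : PU p S P M) (hH : HChar S P)
    (hQ : pCoreOf p P ≤ centralizer (pCoreOf p P : Set G))
    (hQA : ⁅pCoreOf p P, A⁆ ≤ ⁅VV p P, A⁆) {F : Type*} [Field F] [Fintype F]
    (hF : (pCoreOf p P).relIndex S = Fintype.card F) :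
    ∃ G₀ E, IsInternalDirectProduct G₀ E P ∧ IsElementaryAbelian p E ∧
      Nonempty (G₀ ≃* qdOver F) := by
  set Q := pCoreOf p P with hQd
  set V := VV p P with hVd
  have hPQ : P ≤ normalizer (Q : Set G) := le_normalizer_pCoreOf P
  have hQP : Q ≤ P := pCoreOf_le P
  have hVQ : V ≤ Q := h.VQ
  have hexp : ∀ s ∈ S, s ^ p = 1 := fun s hs => hc.pow_eq_one_of_dvd h hH dvd_rfl
    (Nat.Prime.dvd_choose_self Fact.out two_ne_zero
      (lt_of_le_of_ne (Nat.Prime.two_le Fact.out) (Ne.symm hp))) hs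
  obtain ⟨C, hCA, hC1, hC2⟩ := exists_compl_of_elemAb Q hc.el
  obtain ⟨L, hLP, hL1, hL2⟩ := exists_compl_in h.syl (isPGroup_pCoreOf P) hQ hPQ hC1 (by
    rw [← hc.sup, ← hC2, sup_assoc, sup_eq_right.2 (inf_le_right (a := A)), sup_comm])
  obtain ⟨F', _, _, D', -, d2, -, d4⟩ := hH.exists_natData h
  set D := D'.mapField (FiniteField.ringEquivOfCardEq (d4.symm.trans hF)) with hD
  have hk : D.ker = Q := by
    rw [hD, NatData.mapField_ker, d2]
    exact le_antisymm (hc.cen_le h) (le_inf hQP Q_le_centralizer_VV)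
  have h2 : (2 : F) ≠ 0 := by
    obtain ⟨n, hn⟩ := (h.pS.to_le le_rfl).exists_card_eq
    obtain ⟨m, -, hm⟩ := (Nat.dvd_prime_pow Fact.out).1 (hn ▸ hF ▸ relIndex_dvd_card Q S)
    haveI := charP_of_card hm
    intro h2
    exact hp ((Nat.prime_dvd_prime_iff_eq Fact.out Nat.prime_two).1
      ((CharP.cast_eq_zero_iff F p 2).1 (by exact_mod_cast h2)))
  have hsurj : ∀ g, ∃ l ∈ L, D.φ l = g := fun g => by
    obtain ⟨e, he, rfl⟩ := D.φ_surj g trivial
    obtain ⟨l, hl, q, hq, rfl⟩ := (mem_sup_iff_of_left_le_normalizer (hLP.trans hPQ)).1 (hL2.ge he)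
    exact ⟨l, hl, by rw [D.φ_mul (hLP hl) (hQP hq), (D.mem_ker.1 (hk.ge hq)).2, mul_one]⟩
  have hinj : ∀ l ∈ L, D.φ l = 1 → l = 1 := fun l hl h1 =>
    mem_bot.1 (hL1.le ⟨hl, hk.le (D.mem_ker.2 ⟨hLP hl, h1⟩)⟩)
  obtain ⟨z, hz, hφz⟩ := hsurj (-1)
  have hz2 : z ^ 2 = 1 := hinj _ (pow_mem hz 2) (by rw [D.φ_pow (hLP hz), hφz]; simp)
  have hzc : L ≤ centralizer (zpowers z : Set G) := le_centralizer_iff.1 (zpowers_le.2 fun l hl => by
    refine mul_inv_eq_one.1 (hinj _ (mul_mem (mul_mem hl hz) (inv_mem (mul_mem hz hl))) ?_)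
    rw [D.φ_mul (hLP (mul_mem hl hz)) (hLP (inv_mem (mul_mem hz hl))), D.φ_inv (hLP (mul_mem hz hl)),
      D.φ_mul (hLP hl) (hLP hz), D.φ_mul (hLP hz) (hLP hl), hφz]
    simp)
  have hzo : (orderOf z).Coprime p := Nat.Coprime.coprime_dvd_left (orderOf_dvd_of_pow_eq_one hz2)
    ((Nat.coprime_primes Nat.prime_two Fact.out).2 (Ne.symm hp))
  have hZP : zpowers z ≤ P := zpowers_le.2 (hLP hz)
  haveI : IsMulCommutative Q := ⟨⟨fun a b => Subtype.ext (hQ b.2 a.1 a.2)⟩⟩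
  obtain ⟨k, hk'⟩ := (isPGroup_pCoreOf (p := p) P).exists_card_eq
  obtain ⟨f1, f2⟩ := CfsgLib.Coprime.fitting_decomposition (V := Q) (hZP.trans hPQ)
    (by rw [Nat.card_zpowers, hk']; exact hzo.pow_right k)
  set W := ⁅Q, zpowers z⁆ with hW
  set E := Q ⊓ centralizer (zpowers z : Set G) with hE
  have hWV : W ≤ V :=
    (commutator_mono le_rfl (zpowers_le.2 (mem_pResOf (hLP hz) hzo))).trans (hc.comm_res h)
  have hn : ∀ {X : Subgroup G}, X ≤ Q → L ≤ normalizer (X : Set G) → P ≤ normalizer (X : Set G) :=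
    fun hX hL => hL2.ge.trans (sup_le hL
      ((hQ.trans (centralizer_anti hX)).trans (centralizer_le_normalizer _)))
  have hLz := hzc.trans (centralizer_le_normalizer _)
  have hPW : P ≤ normalizer (W : Set G) :=
    hn (hWV.trans hVQ) (le_normalizer_commutator (hLP.trans hPQ) hLz)
  have hPE : P ≤ normalizer (E : Set G) := hn inf_le_left (le_normalizer_cen (hLP.trans hPQ) hLz)
  have hZE : cen V P ≤ E := le_inf (inf_le_left.trans hVQ) (inf_le_right.trans (centralizer_anti hZP))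
  have hπ : ∀ m, ∃ w ∈ W, D.π w = m := fun m => by
    obtain ⟨v, hv, hv'⟩ := D.π_surj ((2 : F)⁻¹ • m)
    refine ⟨⁅v, z⁆, commutator_mem_commutator (hVQ hv) (mem_zpowers z), ?_⟩
    rw [D.π_commutator' (hLP hz) hv, hφz, hv']
    ext i
    fin_cases i <;> simp [act_apply] <;> field_simp <;> ring
  have hEA : E ≤ centralizer (A : Set G) := by
    rw [← commutator_eq_bot_iff_le_centralizer, eq_bot_iff, ← f1]
    refine le_inf (commutator_le_left_of_le_normalizer ((hc.le.trans h.SP).trans hPE))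
      (((commutator_mono inf_le_left le_rfl).trans hQA).trans (Subgroup.commutator_le.2 fun v hv a ha => ?_))
    obtain ⟨w, hw, hw'⟩ := hπ (D.π v)
    have h1 := (D.π_eq_iff (hWV hw) hv).1 hw'
    have h3 : ⁅v, a⁆ = ⁅w, a⁆ := by
      have h4 := h1.2 a (h.SP (hc.le ha))
      calc ⁅v, a⁆ = w * ((w⁻¹ * v) * a) * v⁻¹ * a⁻¹ := by group
        _ = ⁅w, a⁆ := by rw [← h4]; group
    rw [h3]
    exact commutator_le_left_of_le_normalizer ((hc.le.trans h.SP).trans hPW)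
      (commutator_mem_commutator hw ha)
  have hEP : P ≤ centralizer (E : Set G) := h.nclIn_eq.ge.trans (nclIn_le_centralizer
    (hc.sup.ge.trans (sup_le (le_centralizer_iff.1 hEA) (hQ.trans (centralizer_anti inf_le_left)))) hPE)
  have hWL : W ⊔ L ≤ P := sup_le ((hWV.trans hVQ).trans hQP) hLP
  let N : NatData F ⊤ L W ⊥ :=
    { π := D.π
      φ := D.φ
      le := bot_le
      norm := hLP.trans hPW
      π_mul := fun x hx y hy => D.π_mul x (hWV hx) y (hWV hy)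
      π_eq_zero := fun x hx => ⟨fun h1 => f1.le ⟨hZE ((D.π_eq_zero x (hWV hx)).1 h1), hx⟩,
        fun h1 => by rw [mem_bot.1 h1, D.π_one]⟩
      π_surj := hπ
      φ_mem := fun _ _ => trivial
      φ_surj := fun g _ => hsurj g
      π_conj := fun e he x hx => D.π_conj e (hLP he) x (hWV hx) }
  refine ⟨W ⊔ L, E, ⟨hWL, inf_le_left.trans hQP, fun a ha b hb => (hEP (hWL ha) b hb).symm, ?_, ?_⟩,
    ⟨⟨⟨fun a b => Subtype.ext (hQ b.2.1 a.1 a.2.1)⟩⟩, fun a ha => hexp a (h.QS ha.1)⟩,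
    N.nonempty_equiv_qdOver (eq_bot_iff.2 fun l hl => hinj l (N.mem_ker.1 hl).1 (N.mem_ker.1 hl).2)⟩
  · refine eq_bot_iff.2 fun x ⟨hx, hxE⟩ => ?_
    obtain ⟨w, hw, l, hl, rfl⟩ := (mem_sup_iff_of_right_le_normalizer (hLP.trans hPW)).1 hx
    have : l = 1 := mem_bot.1 (hL1.le ⟨hl, by simpa using mul_mem (inv_mem (hVQ (hWV hw))) hxE.1⟩)
    rw [this, mul_one] at hxE ⊢
    exact f1.le ⟨hxE, hw⟩
  · rw [sup_right_comm, sup_comm W, f2, sup_comm, hL2]

/-- Glauberman's theorem on maximal `p`-local subgroups with a `PSL₂(pⁿ)` quotient. -/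
theorem PU.exists_qd [Finite G] {p : ℕ} [Fact p.Prime] (hp : p ≠ 2) (hp3 : p ≠ 3) {S P M : Subgroup G}
    (h : PU p S P M) (hmax : ∀ R ≤ S, R ≠ ⊥ → P ≤ normalizer (R : Set G) → normalizer (R : Set G) ≤ P)
    (hN : ¬ normalizer (S : Set G) ≤ P) {F : Type*} [Field F] [Fintype F]
    (hF : (pCoreOf p P).relIndex S = Fintype.card F) :
    ∃ G₀ E, IsInternalDirectProduct G₀ E P ∧ IsElementaryAbelian p E ∧
      Nonempty (G₀ ≃* qdOver F) := by
  have hH : HNorm S P := fun N h1 h2 h3 => by_contra fun h4 => hN (h3.trans (hmax N h1 h4 h2))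
  obtain ⟨x, hx, h1⟩ := (h.orbit hH).resolve_right fun ⟨_, _, h⟩ => hp3 h.three
  have hxS := mem_normalizer_iff_conjS.1 hx
  have h' : PU p S (conjS x P) (conjS x M) := hxS ▸ h.conj x
  have hz := hH.hChar.nz h
  have hz' : ¬ conjS x P ≤ normalizer (cen S S : Set G) := fun h2 => hz (by
    rwa [← hxS, ← conjS_cen', ← conjS_normalizer, conjS_le_conjS_iff] at h2)
  obtain ⟨s1, s2⟩ := crit_sup h h' hz hz' h.VS h'.VS h1
  have key : ∀ {V Q D A : Subgroup G}, V ⊔ D = Q → Q ≤ centralizer (V : Set G) →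
      (D ≤ centralizer (A : Set G) → ⁅Q, A⁆ ≤ ⁅V, A⁆) ∧ ⁅Q, Q⁆ = ⁅D, D⁆ := by
    intro V Q D A e1 e2
    have e3 : ∀ q ∈ Q, ∃ v ∈ V, ∃ d ∈ D, q = v * d := fun q hq =>
      (mem_sup_iff_of_right_le_normalizer (((le_sup_right.trans e1.le).trans e2).trans
        (centralizer_le_normalizer _))).1 (e1.ge hq)
    have hD : D ≤ Q := le_sup_right.trans e1.le
    refine ⟨fun e4 => commutator_le.2 fun q hq a ha => ?_,
      le_antisymm (commutator_le.2 fun q hq r hr => ?_) (commutator_mono hD hD)⟩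
    · obtain ⟨v, hv, d, hd, rfl⟩ := e3 q hq
      have : ⁅v * d, a⁆ = ⁅v, a⁆ := by
        calc ⁅v * d, a⁆ = v * (d * a) * d⁻¹ * v⁻¹ * a⁻¹ := by group
          _ = ⁅v, a⁆ := by rw [← e4 hd a ha]; group
      rw [this]
      exact commutator_mem_commutator hv ha
    · obtain ⟨v, hv, d, hd, rfl⟩ := e3 q hq
      obtain ⟨w, hw, e, he, rfl⟩ := e3 r hr
      have c1 : Commute v (w * e) := e2 hr v hv
      have c2 : Commute v d := e2 (hD hd) v hv
      have c3 : Commute w d := e2 (hD hd) w hw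
      have c4 : Commute w e := e2 (hD he) w hw
      have : ⁅v * d, w * e⁆ = ⁅d, e⁆ := by
        calc ⁅v * d, w * e⁆ = (v * d) * (w * e) * d⁻¹ * v⁻¹ * (w * e)⁻¹ := by group
          _ = d * (v * (w * e)) * d⁻¹ * v⁻¹ * (w * e)⁻¹ := by rw [c2.eq]; group
          _ = d * (w * e) * (v * d⁻¹) * v⁻¹ * (w * e)⁻¹ := by rw [c1.eq]; group
          _ = d * (w * e) * d⁻¹ * (w * e)⁻¹ := by rw [c2.inv_right.eq]; group
          _ = d * e * (w * d⁻¹) * w⁻¹ * e⁻¹ := by rw [c4.eq]; group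
          _ = ⁅d, e⁆ := by rw [c3.inv_right.eq]; group
      rw [this]
      exact commutator_mem_commutator hd he
  have hS' := h'.SP.trans (le_normalizer_pCoreOf (p := p) _)
  have hS := h.SP.trans (le_normalizer_pCoreOf (p := p) _)
  obtain ⟨k1, k2⟩ := key (A := VV p (conjS x P)) (sup_inf_eq_of_sup_eq s2 (h.VS.trans hS') h.VQ h.QS)
    Q_le_centralizer_VV
  obtain ⟨-, k3⟩ := key (A := ⊥) (sup_inf_eq_of_sup_eq s1 (h'.VS.trans hS) h'.VQ h'.QS)
    Q_le_centralizer_VV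
  refine (h.case1 hH.hChar hx h1).exists_qd hp h hH.hChar ?_
    (k1 (inf_le_right.trans Q_le_centralizer_VV)) hF
  rw [← commutator_eq_bot_iff_le_centralizer]
  by_contra h2
  have h3 : x ∈ P := hmax _ ((commutator_le_left_of_le_normalizer le_normalizer).trans h.QS) h2
    (le_normalizer_commutator (le_normalizer_pCoreOf P) (le_normalizer_pCoreOf P))
    (mem_normalizer_iff_conjS.2 (by rw [conjS_commutator, conjS_pCoreOf, k3, k2, inf_comm]))
  exact h1 (by rw [conjS_eq_of_mem h3]; exact h.VQ)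

end CfsgLib.Push
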